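import Cfsg.Agent.H63.AnDefs2

/-!
# Project AN, pieces `CAN` and `UNI`: the canonical involutions over a double transposition
-/

set_option autoImplicit false
set_option linter.unusedSectionVars false

namespace Cfsg.Agent.H10.AnCan

open Cfsg Cfsg.Agent.H63 Cfsg.Agent.H63.SL Cfsg.Agent.H63.AN Subgroup
open Cfsg.Agent.H7.AA
open Cfsg.Agent.H78 (c3 altOn symOn mem_altOn mem_symOn)
open Equiv (swap Perm)
open Equiv.Perm (sign)

universe u

section Perm

variable {α : Type} [Fintype α] [DecidableEq α] {a b c d : α}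

theorem d2_fix (h : [a, b, c, d].Nodup) {x : α} :
    d2 a b c d x = x ↔ x ∉ ({a, b, c, d} : Finset α) := by
  obtain ⟨h1, h2, h3, h4, h5, h6⟩ := nodup4.1 h
  simp only [d2_apply, Equiv.swap_apply_def, Finset.mem_insert, Finset.mem_singleton]
  grind

theorem d2_symOn (h : [a, b, c, d].Nodup) : d2 a b c d ∈ symOn ({a, b, c, d} : Finset α) :=
  fun _ hx => (d2_fix h).2 hx

theorem d2_sign (h : [a, b, c, d].Nodup) : sign (d2 a b c d) = 1 :=
  sign_d2 (nodup4.1 h).1 (nodup4.1 h).2.2.2.2.2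

theorem alt_le_CA (h : [a, b, c, d].Nodup) :
    altOn ({a, b, c, d}ᶜ : Finset α) ≤ CA (d2 a b c d) := fun _ hσ =>
  mem_CA.2 ⟨H78.commute_of_mem_symOn disjoint_compl_left hσ.1 (d2_symOn h), hσ.2⟩

theorem exists_part (σ : Perm α) (S : Finset α) (h : ∀ x, σ x ∈ S ↔ x ∈ S) :
    ∃ τ ∈ symOn S, σ * τ⁻¹ ∈ symOn Sᶜ := by
  have m : Perm.ofSubtype (σ.subtypePerm h) ∈ symOn S := fun x hx =>
    Equiv.Perm.ofSubtype_subtypePerm_of_not_mem h hx
  refine ⟨_, m, fun x hx => ?_⟩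
  rw [Finset.mem_compl, not_not] at hx
  rw [Equiv.Perm.mul_apply, ← Equiv.Perm.ofSubtype_subtypePerm_of_mem h
    (H78.symOn_apply_mem (inv_mem m) hx)]
  exact Equiv.apply_symm_apply _ x

theorem CA_split (h : [a, b, c, d].Nodup) {Q : Finset α} (hQ : Q.card = 7)
    (hs : ({a, b, c, d} : Finset α) ⊆ Q) {σ : Perm α} (hσ : σ ∈ CA (d2 a b c d)) :
    ∃ τ ∈ altOn ({a, b, c, d}ᶜ : Finset α), σ * τ⁻¹ ∈ altOn Q := by
  obtain ⟨hc, hs1⟩ := mem_CA.1 hσ
  obtain ⟨τ, h1, h2⟩ := exists_part σ ({a, b, c, d}ᶜ) fun x => by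
    rw [Finset.mem_compl, Finset.mem_compl, ← d2_fix h, ← d2_fix h, ← Equiv.Perm.mul_apply, ← hc.eq,
      Equiv.Perm.mul_apply, σ.injective.eq_iff]
  rw [compl_compl] at h2
  rcases Int.units_eq_one_or (sign τ) with e | e
  · exact ⟨τ, ⟨h1, e⟩, H78.symOn_mono hs h2, by simp [hs1, e]⟩
  · obtain ⟨x, hx, y, hy, hxy⟩ := Finset.one_lt_card.1 (show 1 < (Q \ {a, b, c, d}).card by
      have := Finset.card_le_four (a := a) (b := b) (c := c) (d := d)
      rw [Finset.card_sdiff_of_subset hs]; omega)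
    rw [Finset.mem_sdiff] at hx hy
    refine ⟨swap x y * τ, ⟨mul_mem (H78.swap_mem_symOn (Finset.mem_compl.2 hx.2)
      (Finset.mem_compl.2 hy.2)) h1, by simp [hxy, e]⟩, ?_, by simp [hxy, e, hs1]⟩
    rw [mul_inv_rev, ← mul_assoc]
    exact (symOn Q).mul_mem (H78.symOn_mono hs h2)
      ((symOn Q).inv_mem (H78.swap_mem_symOn hx.1 hy.1))

theorem cent_CA (h9 : 9 ≤ Fintype.card α) (h : [a, b, c, d].Nodup) {ρ : Perm α}
    (hρ : ∀ σ ∈ CA (d2 a b c d), ρ * σ = σ * ρ) : ρ = 1 ∨ ρ = d2 a b c d := by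
  obtain ⟨h1, h2, h3, h4, h5, h6⟩ := nodup4.1 h
  have c4 := Finset.card_le_four (a := a) (b := b) (c := c) (d := d)
  have fx : ∀ x ∉ ({a, b, c, d} : Finset α), ρ x = x := fun x hx => by
    have hc : 3 ≤ (({a, b, c, d}ᶜ : Finset α).erase x).card := by
      rw [Finset.card_erase_of_mem (Finset.mem_compl.2 hx), Finset.card_compl]; omega
    obtain ⟨s, hs, hs3⟩ := Finset.exists_subset_card_eq hc
    obtain ⟨y, z, u, hyz, hyu, hzu, rfl⟩ := Finset.card_eq_three.1 hs3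
    have hy := Finset.mem_erase.1 (hs (show y ∈ ({y, z, u} : Finset α) by simp))
    have hz := Finset.mem_erase.1 (hs (show z ∈ ({y, z, u} : Finset α) by simp))
    have hu := Finset.mem_erase.1 (hs (show u ∈ ({y, z, u} : Finset α) by simp))
    have hx' := Finset.mem_compl.2 hx
    exact (fix_of_comm_c3 (nodup4.2 ⟨hy.1.symm, hz.1.symm, hu.1.symm, hyz, hyu, hzu⟩)
      (hρ _ (alt_le_CA h (H78.c3_mem_altOn hx' hy.2 hz.2 hy.1.symm hyz)))
      (hρ _ (alt_le_CA h (H78.c3_mem_altOn hx' hy.2 hu.2 hy.1.symm hyu)))).1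
  obtain ⟨x, hx, y, hy, hxy⟩ := Finset.one_lt_card.1
    (show 1 < ({a, b, c, d}ᶜ : Finset α).card by rw [Finset.card_compl]; omega)
  rw [Finset.mem_compl] at hx hy
  have fx1 := fx x hx
  have fy1 := fx y hy
  have k := d2_kpair h
  have cw := hρ _ (mem_CA.2 ⟨Commute.refl _, d2_sign h⟩)
  have cv := hρ _ (mem_CA.2 ⟨k.comm.symm, sign_d2 h2 h5⟩)
  simp only [Finset.mem_insert, Finset.mem_singleton, not_or] at hx hy
  have cs := hρ (d2 a b x y) (mem_CA.2 ⟨by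
    ext e; simp only [Equiv.Perm.mul_apply, d2_apply, Equiv.swap_apply_def]; grind,
    sign_d2 h1 hxy⟩)
  have one : ∀ ρ : Perm α, (∀ x ∉ ({a, b, c, d} : Finset α), ρ x = x) →
      ρ * d2 a b c d = d2 a b c d * ρ → ρ * d2 a c b d = d2 a c b d * ρ → ρ a = a → ρ = 1 := by
    intro ρ fx cw cv ha
    have e1 := DFunLike.congr_fun cw a
    have e2 := DFunLike.congr_fun cv a
    have e3 := DFunLike.congr_fun cw c
    have wa : d2 a b c d a = b := by simp only [d2_apply, Equiv.swap_apply_def]; grind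
    have va : d2 a c b d a = c := by simp only [d2_apply, Equiv.swap_apply_def]; grind
    have wc : d2 a b c d c = d := by simp only [d2_apply, Equiv.swap_apply_def]; grind
    rw [Equiv.Perm.mul_apply, Equiv.Perm.mul_apply, ha] at e1 e2
    rw [wa] at e1
    rw [va] at e2
    rw [Equiv.Perm.mul_apply, Equiv.Perm.mul_apply, e2, wc] at e3
    ext e
    by_cases he : e ∈ ({a, b, c, d} : Finset α)
    · simp only [Finset.mem_insert, Finset.mem_singleton] at he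
      rcases he with rfl | rfl | rfl | rfl <;> assumption
    · exact fx e he
  have ha : ρ a = a ∨ ρ a = b := by
    have e1 := DFunLike.congr_fun cs a
    have sa : d2 a b x y a = b := by simp only [d2_apply, Equiv.swap_apply_def]; grind
    rw [Equiv.Perm.mul_apply, Equiv.Perm.mul_apply, sa] at e1
    have n1 : ρ b ≠ ρ a := ρ.injective.ne h1.symm
    have n2 : ρ a ≠ x := fun e => hx.1 (ρ.injective (fx1.trans e.symm))
    have n3 : ρ a ≠ y := fun e => hy.1 (ρ.injective (fy1.trans e.symm))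
    rw [e1] at n1
    simp only [d2_apply, Equiv.swap_apply_def] at n1
    grind
  rcases ha with ha | ha
  · exact Or.inl (one ρ fx cw cv ha)
  · refine Or.inr ?_
    have := one (d2 a b c d * ρ) (fun e he => by
      rw [Equiv.Perm.mul_apply, fx e he, (d2_fix h).2 he]) (by rw [mul_assoc, cw])
      (by rw [mul_assoc, cv, ← mul_assoc, k.comm, mul_assoc]) (by
        rw [Equiv.Perm.mul_apply, ha]; simp only [d2_apply, Equiv.swap_apply_def]; grind)
    rw [eq_inv_of_mul_eq_one_right this, inv_eq_of_mul_eq_one_right k.aa]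

end Perm

/-- **CAN** -/
theorem can (nrm : NrmStmt.{u}) : CanStmt.{u} := by
  intro G _ _ α _ _ ψ t hb hk hc Q hQ f hf w hw
  refine ⟨hf.sq w hw, hf.ft w hw, ?_, hf.cO w hw⟩
  obtain ⟨⟨a, b, c, d, h, rfl⟩, hwQ⟩ := id hw
  obtain ⟨h1, h2, h3, h4, h5, h6⟩ := nodup4.1 h
  have hs : ({a, b, c, d} : Finset α) ⊆ Q := fun x hx => by
    by_contra n
    exact (d2_fix h).1 (hwQ x n) hx
  have cQ : ∀ v, InQ Q v → ∀ σ ∈ altOn Q, Commute σ v → Commute (f v) (ev ψ σ) :=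
    fun v hv σ hσ e => by
      have := hf.eqv v hv σ hσ
      rw [e.eq, mul_inv_cancel_right] at this
      exact (mul_inv_eq_iff_eq_mul.1 this).symm
  have n1 : [a, c, b, d].Nodup := nodup4.2 ⟨h2, h1, h3, h4.symm, h6, h5⟩
  have n2 : [a, d, c, b].Nodup := nodup4.2 ⟨h3, h2, h1, h6.symm, h5.symm, h4.symm⟩
  have e1 : ({a, c, b, d} : Finset α) = {a, b, c, d} := by rw [Finset.insert_comm c b]
  have e2 : ({a, d, c, b} : Finset α) = {a, b, c, d} := by ext; simp; tauto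
  have v1 : InQ Q (d2 a c b d) := ⟨⟨_, _, _, _, n1, rfl⟩, H78.symOn_mono (e1 ▸ hs) (d2_symOn n1)⟩
  have v2 : InQ Q (d2 a d c b) := ⟨⟨_, _, _, _, n2, rfl⟩, H78.symOn_mono (e2 ▸ hs) (d2_symOn n2)⟩
  have vv : d2 a c b d * d2 a d c b = d2 a b c d := by
    ext x; simp only [Equiv.Perm.mul_apply, d2_apply, Equiv.swap_apply_def]; grind
  have vc : Commute (d2 a c b d) (d2 a d c b) := by
    ext x; simp only [Equiv.Perm.mul_apply, d2_apply, Equiv.swap_apply_def]; grind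
  have θm : c3 c d b ∈ altOn ({a, b, c, d} : Finset α) :=
    H78.c3_mem_altOn (by simp) (by simp) (by simp) h6 h5.symm
  have θv : c3 c d b * d2 a c b d * (c3 c d b)⁻¹ = d2 a d c b := by
    rw [d2_conj, H78.c3_apply_of_ne h2 h3 h1, H78.c3_apply_fst h6 h4.symm, H78.c3_apply_thd,
      H78.c3_apply_snd h4.symm h5.symm]
  have hN := nrm ψ t hb hk hc (f (d2 a c b d)) a c b d
    ⟨n1, hf.ft _ v1, cQ _ v1 _ ⟨v1.2, d2_sign n1⟩ (Commute.refl _)⟩
  rw [e1] at hN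
  have fw : f (d2 a b c d) = f (d2 a c b d) *
      (ev ψ (c3 c d b) * f (d2 a c b d) * (ev ψ (c3 c d b))⁻¹) := by
    rw [hf.eqv _ v1 _ (H78.altOn_mono hs θm), θv, ← hf.mul _ _ v1 v2 (vv ▸ hw) vc, vv]
  have θB : ∀ x ∈ LS ψ ({a, b, c, d}ᶜ : Finset α), Commute (ev ψ (c3 c d b)) x := fun x hx => by
    obtain ⟨σ, hσ, rfl⟩ := mem_LS.1 hx
    exact ev_comm θm.2 hσ.2 (H78.commute_of_mem_symOn disjoint_compl_right θm.1 hσ.1)
  have cB : ∀ σ ∈ altOn ({a, b, c, d}ᶜ : Finset α), Commute (f (d2 a b c d)) (ev ψ σ) :=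
    fun σ hσ => by
      have m := mem_LS.2 ⟨σ, hσ, (rfl : ev ψ σ = ev ψ σ)⟩
      have k1 := (θB _ m).eq
      have k2 := (θB _ ((mem_normalizer_iff.1 hN _).1 m)).eq
      have k3 := hf.sq _ v1
      rw [fw]
      generalize f (d2 a c b d) = g at k2 k3
      generalize ev ψ (c3 c d b) = θ at k1 k2
      generalize ev ψ σ = x at k1 k2
      refine mul_inv_eq_iff_eq_mul.1 ?_
      calc g * (θ * g * θ⁻¹) * x * (g * (θ * g * θ⁻¹))⁻¹
          = g * (θ * (g * (θ⁻¹ * (x * θ)) * g⁻¹)) * θ⁻¹ * g⁻¹ := by group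
        _ = g * (θ * (g * x * g⁻¹)) * θ⁻¹ * g⁻¹ := by rw [← k1, inv_mul_cancel_left]
        _ = g * g * x * (g * g)⁻¹ := by rw [k2]; group
        _ = x := by rw [k3]; group
  intro σ hσ
  obtain ⟨τ, t1, t2⟩ := CA_split h hQ hs hσ
  have := (cQ _ hw _ t2 ((mem_CA.1 hσ).1.mul_left
    (mem_CA.1 (alt_le_CA h t1)).1.inv_left)).mul_right (cB τ t1)
  rwa [← ev_mul t2.2 t1.2, inv_mul_cancel_right] at this

/-- **UNI** -/
theorem uni : UniStmt.{u} := by
  intro G _ _ α _ _ ψ t hb hk _ w ⟨a, b, c, d, h, e⟩ g g' hg hg'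
  subst e
  have kp := d2_kpair h
  have sw := d2_sign h
  have mw : d2 a b c d ∈ CA (d2 a b c d) := mem_CA.2 ⟨Commute.refl _, sw⟩
  have w2 : ev ψ (d2 a b c d) * ev ψ (d2 a b c d) = 1 := by rw [← ev_mul sw sw, kp.aa, ev_one]
  have ht : Commute (g * g') t := by
    refine mul_inv_eq_iff_eq_mul.1 ?_
    calc g * g' * t * (g * g')⁻¹ = g * (g' * t * g'⁻¹) * g⁻¹ := by group
      _ = g * t * g⁻¹ * (g * ev ψ (d2 a b c d) * g⁻¹) := by rw [hg'.gt]; group
      _ = t := by rw [hg.gt, (hg.cA _ mw).eq, mul_inv_cancel_right, mul_assoc, w2, mul_one]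
  obtain ⟨ρ, hρ⟩ := hk.act _ ht
  have hr := cent_CA hb.nine h (ρ := ρ) fun σ hσ =>
    hρ.comm_perm hb.inj (mem_CA.1 hσ).2 ((hg.cA σ hσ).mul_left (hg'.cA σ hσ)).eq
  have hr' : sign ρ = 1 ∧ (ev ψ ρ = 1 ∨ ev ψ ρ = ev ψ (d2 a b c d)) := by
    rcases hr with rfl | rfl
    exacts [⟨by simp, Or.inl ev_one⟩, ⟨sw, Or.inr rfl⟩]
  have kK := hρ.mul_inv_KA hr'.1
  have tr : Commute t (ev ψ ρ) := KA_ev hb.tK ρ
  have gr : Commute g (ev ψ ρ) := by
    rcases hr'.2 with e | e <;> rw [e]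
    exacts [Commute.one_right g, hg.cA _ mw]
  have wr : Commute (ev ψ (d2 a b c d)) (ev ψ ρ) := by
    rcases hr'.2 with e | e
    exacts [e ▸ Commute.one_right _, e ▸ Commute.refl _]
  have r2 : ev ψ ρ * ev ψ ρ = 1 := by
    rcases hr'.2 with e | e <;> rw [e]
    exacts [mul_one 1, w2]
  obtain ⟨O, oO, OC, OK, -, hO⟩ := hk.odd
  have odd : ∀ o ∈ O, Odd (orderOf o) := fun o ho => oO.of_dvd_nat (O.orderOf_dvd_natCard ho)
  have sq : ∀ o ∈ O, o * o = 1 → o = 1 := fun o ho e => by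
    obtain ⟨m, hm⟩ := odd o ho
    rw [← pow_orderOf_eq_one o, hm, pow_succ, pow_mul, sq, e, one_pow, one_mul]
  have ot : ∀ o ∈ O, Commute o t := fun o ho => mem_centralizer_singleton_iff.1 (OC ho)
  have og : ∀ o ∈ O, Commute g o := fun o ho => hg.cO o (OK ho) (ot o ho) (odd o ho)
  have or' : ∀ o ∈ O, Commute o (ev ψ ρ) := fun o ho => KA_ev (OK ho) ρ
  have inv : g * (g * g') * g⁻¹ * (g * g') = 1 := by
    rw [← mul_assoc g g, hg.sq, one_mul, mul_assoc, inv_mul_cancel_left, hg'.sq]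
  rcases hO _ kK (ht.mul_left tr.symm.inv_left) with m | m
  · obtain ⟨o, ho, e⟩ : ∃ o ∈ O, g * g' = o * ev ψ ρ := ⟨_, m, by group⟩
    rw [e, ((og o ho).mul_right gr).eq, mul_inv_cancel_right,
      (or' o ho).symm.mul_mul_mul_comm, r2, mul_one] at inv
    rw [sq o ho inv, one_mul] at e
    have e' : g' = g * ev ψ ρ := by rw [← e, ← mul_assoc, hg.sq, one_mul]
    rcases hr'.2 with k | k <;> rw [k] at e'
    exacts [Or.inl (e'.trans (mul_one g)), Or.inr e']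
  · exfalso
    obtain ⟨o, ho, e⟩ : ∃ o ∈ O, g * g' = o * t * ev ψ ρ :=
      ⟨_, m, by rw [mul_assoc _ t t, hb.t2]; group⟩
    have ow : Commute o (ev ψ (d2 a b c d)) := KA_ev (OK ho) _
    have tw : Commute t (ev ψ (d2 a b c d)) := KA_ev hb.tK _
    have e1 : g * (o * t * ev ψ ρ) * g⁻¹ = ev ψ (d2 a b c d) * (o * t * ev ψ ρ) := by
      calc _ = g * o * g⁻¹ * (g * t * g⁻¹) * (g * ev ψ ρ * g⁻¹) := by group
        _ = _ := by
          rw [(og o ho).eq, gr.eq, mul_inv_cancel_right, mul_inv_cancel_right, hg.gt, ← mul_assoc,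
            (ow.mul_left tw).eq, mul_assoc]
    have e2 : o * t * ev ψ ρ * (o * t * ev ψ ρ) = o * o := by
      rw [((or' o ho).mul_left tr).symm.mul_mul_mul_comm, r2, mul_one,
        (ot o ho).symm.mul_mul_mul_comm, hb.t2, mul_one]
    rw [e, e1, mul_assoc, e2] at inv
    have e3 : o * o = ev ψ (d2 a b c d) := by
      rw [eq_inv_of_mul_eq_one_right inv, inv_eq_of_mul_eq_one_right w2]
    have := sq _ (mul_mem ho ho) (by rw [e3, w2])
    exact kp.a1 (ev_eq_one hb.inj sw (e3 ▸ this))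

end Cfsg.Agent.H10.AnCan
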