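import Mathlib
import Cfsg.Agent.H97.JmDefs
import Cfsg.Agent.H33.J4Odd1

/-! Project JM, piece CZ: the centraliser of the central involution is maximal. -/

set_option autoImplicit false

namespace Cfsg.Agent.H97.JM

open Subgroup

universe u

theorem CZ.num : allD (fun n => n % 21799895040 != 0 || n == 21799895040 || n % 1331 == 0 ||
    n / 21799895040 % 3 != 1 || n == 86775571046077562880 || !ok n) = true := by decide +kernel

theorem pCZ (hALLD : ALLD) (hOK : OK.{u}) (hSYL : SYL.{u}) : CZ.{u} := by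
  intro G _ _ C z x Q U D hN
  have : Fact (Nat.Prime 3) := ⟨by norm_num⟩
  have : Fact (Nat.Prime 11) := ⟨by norm_num⟩
  refine ⟨fun e => ?_, fun H hH => ?_⟩
  · have := D.cz
    rw [e, card_top, C.card] at this
    exact absurd this (by decide)
  obtain ⟨R, r1, r2⟩ := D.R3
  have h1 := hSYL G 3 R _ H r1 hH.le (inf_le_right.trans r2)
  have h2 := card_dvd_of_le hH.le
  have h3 := hALLD _ CZ.num _ (C.card ▸ H.card_subgroup_dvd_card)
  have h4 : Nat.card H ≠ 21799895040 := fun e =>
    hH.ne (eq_of_le_of_card_ge hH.le (by rw [e, D.cz]))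
  rw [D.cz] at h1 h2
  simp only [hOK G C H, h1, h4, Nat.mod_eq_zero_of_dvd h2, Bool.or_eq_true, beq_iff_eq, bne_iff_ne,
    ne_eq, not_true_eq_false, false_or, or_false, Bool.not_true, Bool.false_eq_true] at h3
  rcases h3 with h3 | h3
  swap
  · exact eq_top_of_card_eq H (h3.trans C.card.symm)
  have xH : x ∈ H := hH.le (mem_centralizer_singleton_iff.2 D.xz)
  have hx : IsPGroup 11 (zpowers (⟨x, xH⟩ : H)) :=
    IsPGroup.of_card (n := 1) (by rw [Nat.card_zpowers, ← Subgroup.orderOf_coe, D.x11, pow_one])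
  obtain ⟨P, hP⟩ := hx.exists_le_sylow
  obtain ⟨W, hW⟩ := (P.isPGroup'.map H.subtype).exists_le_sylow
  have xP : x ∈ (P : Subgroup H).map H.subtype := ⟨_, hP (mem_zpowers _), rfl⟩
  obtain rfl : U = W := C.ti U W fun e => by
    have : x ∈ (U : Subgroup G) ⊓ W := ⟨D.xU, hW xP⟩
    rw [e, mem_bot] at this
    have h := D.x11
    rw [this, orderOf_one] at h
    exact absurd h (by decide)
  have uH : (U : Subgroup G) ≤ H := by
    rw [← eq_of_le_of_card_ge hW ?_]
    · exact map_subtype_le _
    rw [(C.n11 U).1, card_map_of_injective H.subtype_injective]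
    exact Nat.le_of_dvd Nat.card_pos (P.pow_dvd_card_of_pow_dvd_card (n := 3)
      (Nat.dvd_of_mod_eq_zero h3))
  have nH : normalizer ((U : Subgroup G) : Set G) ≤ H := by
    refine inf_eq_right.1 (eq_of_le_of_card_ge inf_le_right ?_)
    have a1 := card_dvd_of_le (le_inf uH (le_normalizer (H := (U : Subgroup G))))
    have a2 := card_dvd_of_le (inf_le_inf_right (normalizer ((zpowers x : Subgroup G) : Set G)) hH.le)
    rw [D.cN, ← D.nU] at a2
    rw [(C.n11 U).1] at a1
    rw [(C.n11 U).2]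
    exact Nat.le_of_dvd Nat.card_pos (Nat.lcm_dvd a1 a2)
  refine hN.2 H (lt_of_le_of_ne nH fun e => ?_)
  rw [← e, (C.n11 U).2] at h2
  exact absurd h2 (by decide)

end Cfsg.Agent.H97.JM
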