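import Mathlib
import Cfsg.Agent.H97.JnDefs
import Cfsg.Agent.H33.J4Odd1

/-! Project JN, piece NB: the normaliser of an element of order eleven of the second class. -/

set_option autoImplicit false

namespace Cfsg.Agent.H97.JM

open Subgroup Cfsg.Agent.H33.J4O

universe u

theorem NB.pair {G : Type u} [Group G] [Finite G] [Fact (Nat.Prime 11)] {a b : G}
    (ha : orderOf a = 11) (hb : orderOf b = 11) (h : a * b = b * a) :
    ∃ U : Sylow 11 G, a ∈ (U : Subgroup G) ∧ b ∈ (U : Subgroup G) := by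
  have k : ∀ y : G, orderOf y = 11 → IsPGroup 11 (zpowers y) := fun y hy =>
    IsPGroup.of_card (n := 1) (by rw [Nat.card_zpowers, hy, pow_one])
  obtain ⟨U, hU⟩ := ((k a ha).to_sup_of_normal_right' (k b hb)
    (zpowers_le.2 (cent_le_norm b (mcs.2 h)))).exists_le_sylow
  exact ⟨U, hU (mem_sup_left (mem_zpowers a)), hU (mem_sup_right (mem_zpowers b))⟩

theorem qNB : NB.{u} := by
  intro G _ _ C hc x c b hx h1 h2 cx cb bx
  have : Fact (Nat.Prime 11) := ⟨by norm_num⟩
  have ti : ∀ (U U' : Sylow 11 G) (y : G), orderOf y = 11 → y ∈ (U : Subgroup G) →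
      y ∈ (U' : Subgroup G) → U = U' := fun U U' y hy a a' => C.ti U U' fun e => by
    have : y ∈ (U : Subgroup G) ⊓ U' := ⟨a, a'⟩
    rw [e, mem_bot] at this
    rw [this, orderOf_one] at hy
    exact absurd hy (by decide)
  rcases hc x hx with h | h
  · obtain ⟨P, hP⟩ := Sylow.exists_subgroup_card_pow_prime 11 (n := 3)
      (G := centralizer ({x} : Set G)) (by rw [h]; decide)
    obtain ⟨U, hU⟩ := exists_sylow (p := 11) (k := 3) (A := P.map (Subgroup.subtype _))
      (by rw [card_map_of_injective (subtype_injective _), hP]) (by rw [C.card]; decide)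
    have le : (U : Subgroup G) ≤ centralizer {x} := hU ▸ map_subtype_le _
    have xU : x ∈ (U : Subgroup G) := mem_sylow U (k := 1) (by rw [pow_one, ← hx, pow_orderOf_eq_one])
      (mem_norm_of fun a ha => by rwa [← mcs.1 (le ha), mul_inv_cancel_right])
    obtain ⟨U1, a1, a2⟩ := NB.pair h1 hx cx
    obtain ⟨U2, a3, a4⟩ := NB.pair h1 h2 cb
    rw [← ti U1 U2 c h1 a1 a3, ti U1 U x hx a2 xU] at a4
    exact absurd (mcs.1 (le a4)) bx
  · obtain ⟨d, hd, e, -⟩ := card_norm (by norm_num : Nat.Prime 11) hx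
    have := Nat.le_of_dvd (by norm_num) hd
    rw [e, h]
    omega

end Cfsg.Agent.H97.JM
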