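import Cfsg.Agent.H45.OnDefs

/-! A component that fixes a second point and moves a component there: two components are free. -/

set_option autoImplicit false

namespace Cfsg.Agent.H10.OnPerm

open Cfsg.Agent.H45.On

universe u v

variable {G : Type u} {Ω : Type v} [Group G] [MulAction G Ω] (S : S0 G Ω)

/-- The elements that fix `y` and normalize all components at `y`. -/
def R (y : Ω) : Subgroup G where
  carrier := {g | g • y = y ∧ ∀ T, S.C y T → cj g T = T}
  one_mem' := ⟨one_smul _ _, fun T _ => cj_one T⟩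
  mul_mem' := fun {a b} ha hb => ⟨by rw [mul_smul, hb.1, ha.1], fun T hT => by
    rw [cj_mul, hb.2 T hT, ha.2 T hT]⟩
  inv_mem' := fun {a} ha => ⟨inv_smul_eq_iff.2 ha.1.symm, fun T hT => by
    conv_lhs => rw [← ha.2 T hT, cj_inv_cj]⟩

variable {S}

theorem R_conj {y : Ω} {g r : G} (hg : g • y = y) (hr : r ∈ R S y) : g * r * g⁻¹ ∈ R S y := by
  have hg' : g⁻¹ • y = y := inv_smul_eq_iff.2 hg.symm
  refine ⟨by rw [mul_smul, mul_smul, hg', hr.1, hg], fun T hT => ?_⟩
  have := S.conj g⁻¹ hT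
  rw [hg'] at this
  rw [cj_mul, cj_mul, hr.2 _ this, cj_cj_inv]

theorem nrm {y : Ω} {T T' : Subgroup G} {h : G} (hT : S.C y T) (hT' : S.C y T') (hh : h ∈ T) :
    cj h T' = T' := by
  by_cases e : T = T'
  · exact cj_self (e ▸ hh)
  · exact cj_of_comm (S.comm hT hT' e h hh)

theorem mem_R {y : Ω} {T : Subgroup G} {h : G} (hT : S.C y T) (hh : h ∈ T) : h ∈ R S y :=
  ⟨S.fx hT h hh, fun _ hT' => nrm hT hT' hh⟩

theorem claim [Finite G] (sim : SimStmt.{u}) {x y : Ω} {M T : Subgroup G} {a h : G}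
    (hM : S.C x M) (hy : Fx M y) (hT : S.C y T) (ha : a ∈ M) (hne : cj a T ≠ T) (hh : h ∈ T)
    (hx : h • x = x) : h = 1 := by
  have hR : ¬ M ≤ R S y := fun hle => hne ((hle ha).2 T hT)
  have sM := sim M (S.simple hM) (S.nab hM)
  have hr := mem_R hT hh
  have key : ∀ b ∈ M, b⁻¹ * (h * b * h⁻¹) ∈ R S y := fun b hb => by
    have := (R S y).mul_mem (R_conj (hy _ (M.inv_mem hb)) hr) ((R S y).inv_mem hr)
    simpa only [inv_inv, mul_assoc] using this
  by_cases e : cj h M = M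
  · have hb : M ⊓ R S y = ⊥ := by
      refine (sM.2.2.2.2.1 _ inf_le_left fun s hs r hr => ⟨?_, R_conj (hy s hs) hr.2⟩).resolve_right
        fun e' => hR (e' ▸ inf_le_right)
      exact M.mul_mem (M.mul_mem hs hr.1) (M.inv_mem hs)
    have h1 : a⁻¹ * (h * a * h⁻¹) ∈ M ⊓ R S y :=
      ⟨M.mul_mem (M.inv_mem ha) (e ▸ cj_mem ha), key a ha⟩
    rw [hb, Subgroup.mem_bot, inv_mul_eq_one, eq_mul_inv_iff_mul_eq] at h1
    have h2 : h ∈ cj a T := by
      rw [mem_cj, mul_assoc, ← h1, inv_mul_cancel_left]; exact hh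
    have h3 := S.conj a hT
    rw [hy a ha] at h3
    exact (sim T (S.simple hT) (S.nab hT)).2.2.2.2.2 h hh (S.comm h3 hT hne h h2)
  · have h3 := S.conj h hM
    rw [hx] at h3
    refine (hR (sM.2.2.2.1 _ fun b hb c hc => ?_)).elim
    have h4 := S.comm h3 hM e _ (cj_mem hc) b hb
    have h5 := key c hc
    generalize h * c * h⁻¹ = c' at h4 h5
    have h6 := R_conj (hy c hc) ((R S y).mul_mem h5 ((R S y).inv_mem (R_conj (hy b hb) h5)))
    have : b * c * b⁻¹ * c⁻¹ = c * (c⁻¹ * c' * (b * (c⁻¹ * c') * b⁻¹)⁻¹) * c⁻¹ := by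
      calc b * c * b⁻¹ * c⁻¹ = b * c' * c'⁻¹ * c * b⁻¹ * c⁻¹ := by group
        _ = c' * b * c'⁻¹ * c * b⁻¹ * c⁻¹ := by rw [h4]
        _ = _ := by group
    rwa [this]

theorem perm (sim : SimStmt.{u}) : PermStmt.{u, v} := by
  intro G Ω _ _ _ _ S hN
  simp only [S0.Nm, not_forall] at hN
  obtain ⟨x, y, M, M', hM, hy, hM', a, ha, hne⟩ := hN
  have hxy : y ≠ x := fun e => hne (nrm hM (e ▸ hM') ha)
  have h2 := S.conj a hM'
  rw [hy a ha] at h2
  intro x' y' hne'
  obtain ⟨g, rfl, rfl⟩ := S.tr2 y x x' y' hxy hne'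
  have tr : ∀ T : Subgroup G, (∀ h ∈ T, h • x = x → h = 1) → St (cj g T) (g • x) = ⊥ :=
    fun T hT => (Subgroup.eq_bot_iff_forall _).2 fun m hm => by
      have := hT _ (mem_cj.1 hm.1) (by
        rw [mul_smul, mul_smul, show m • g • x = g • x from hm.2, inv_smul_smul])
      rwa [mul_assoc, inv_mul_eq_one, eq_comm, mul_eq_right] at this
  refine ⟨cj g M', cj g (cj a M'), S.conj g hM', S.conj g h2, fun e => hne (cj_inj e).symm,
    tr _ fun h hh hx => claim sim hM hy hM' ha hne hh hx,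
    tr _ fun h hh hx => claim sim hM hy h2 (M.inv_mem ha) ?_ hh hx⟩
  rw [cj_inv_cj]
  exact fun e => hne e.symm

theorem eqns : True := by
  have := @R.eq_1.{0, 0}
  trivial

end Cfsg.Agent.H10.OnPerm
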