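import Cfsg.Agent.H18.RfSc
import Cfsg.Agent.S0215

/-! Project RF, piece K2A: the image of `t` is isolated in `H2 / Cc`. -/

set_option autoImplicit false

namespace Cfsg.Agent.H10.RfK2a

open Cfsg Subgroup Cfsg.Agent.H18.MaxOff Cfsg.Agent.H18.Rf
open scoped Pointwise

universe u

theorem conj_into {K : Type u} [Group K] [Finite K] (S : Sylow 2 K) (L A : Subgroup K)
    (hS : (S : Subgroup K) ≤ L) (hA : A ≤ L) (h2 : IsPGroup 2 A) :
    ∃ k ∈ L, ∀ a ∈ A, k * a * k⁻¹ ∈ (S : Subgroup K) := by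
  have hA' : IsPGroup 2 (A.comap L.subtype) := h2.comap_subtype
  obtain ⟨S2, h⟩ := hA'.exists_le_sylow
  obtain ⟨k, hk⟩ := MulAction.exists_smul_eq L S2 (S.subtype hS)
  refine ⟨k, k.2, fun a ha => ?_⟩
  have h1 : (⟨a, hA ha⟩ : L) ∈ (S2 : Subgroup L) := h ha
  have h3 : MulAut.conj k • (⟨a, hA ha⟩ : L) ∈ ((k • S2 : Sylow 2 L) : Subgroup L) := by
    rw [Sylow.coe_subgroup_smul]
    exact smul_mem_pointwise_smul _ _ _ h1
  rw [hk] at h3
  exact h3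

theorem iso_abs {K : Type u} [Group K] [Finite K] (N A : Subgroup K) [N.Normal] (hA : IsPGroup 2 A)
    (t : K) (ht : t ∈ A) (htN : t ∉ N) (hq : ∀ q ∈ A, q ∈ N ∨ q * t⁻¹ ∈ N)
    (hw : ∀ S : Sylow 2 K, A ≤ S → ∀ c : K, (∀ a ∈ A, c * a * c⁻¹ ∈ (S : Subgroup K)) →
      ∀ a ∈ A, c * a * c⁻¹ ∈ A) :
    ∃ F : Subgroup K, N ≤ F ∧ F.Normal ∧ Odd (N.relIndex F) ∧ ∀ h, t * h * t⁻¹ * h⁻¹ ∈ F := by
  obtain ⟨S, hS⟩ := hA.exists_le_sylow
  let π : K →* K ⧸ N := QuotientGroup.mk' N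
  have hπ : Function.Surjective π := QuotientGroup.mk'_surjective N
  have h1 : ∀ x, π x = 1 ↔ x ∈ N := fun x => QuotientGroup.eq_one_iff x
  let P : Sylow 2 (K ⧸ N) := S.mapSurjective hπ
  have hP : ∀ x, x ∈ P ↔ ∃ s ∈ (S : Subgroup K), π s = x := fun x => Iff.rfl
  have hq' : ∀ q ∈ A, π q = 1 ∨ π q = π t := fun q hqA => (hq q hqA).imp (h1 q).2 fun h => by
    have := (h1 _).2 h
    rwa [map_mul, map_inv, mul_inv_eq_one] at this
  have hne : π t ≠ 1 := fun h => htN ((h1 t).1 h)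
  have hu : orderOf (π t) = 2 := by
    refine orderOf_eq_prime ?_ hne
    rcases hq' (t * t) (A.mul_mem ht ht) with h | h
    · rw [sq, ← map_mul, h]
    · rw [map_mul, mul_eq_left] at h
      exact absurd h hne
  obtain ⟨N', hn, hodd, hc⟩ := S0215.result P (π t) hu ((hP _).2 ⟨t, hS ht, rfl⟩) (by
    intro g hg
    obtain ⟨h, rfl⟩ := hπ g
    let L : Subgroup K := (P : Subgroup (K ⧸ N)).comap π
    have hSL : (S : Subgroup K) ≤ L := fun s hs => (hP _).2 ⟨s, hs, rfl⟩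
    have hAL : cj h A ≤ L := by
      rintro _ ⟨a, ha, rfl⟩
      change π (h * a * h⁻¹) ∈ P
      rw [map_mul, map_mul, map_inv]
      rcases hq' a ha with e | e
      · rw [e, mul_one, mul_inv_cancel]; exact (P : Subgroup (K ⧸ N)).one_mem
      · rw [e]; exact hg
    obtain ⟨k, hk, hkS⟩ := conj_into S L (cj h A) hSL hAL (hA.map _)
    have h2 := hw S hS (k * h) (fun a ha => by
      have := hkS (h * a * h⁻¹) ⟨a, ha, rfl⟩
      simpa [mul_assoc] using this) t ht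
    obtain ⟨s, hs, e⟩ := (hP _).1 hk
    have h3 := hw S hS s⁻¹ (fun a ha =>
      mul_mem (mul_mem (inv_mem hs) (hS ha)) (inv_mem (inv_mem hs))) _ h2
    have e2 : π (s⁻¹ * (k * h * t * (k * h)⁻¹) * s⁻¹⁻¹) = π h * π t * (π h)⁻¹ := by
      simp only [map_mul, map_inv, e]
      group
    rcases hq' _ h3 with h4 | h4
    · rw [e2, conj_eq_one_iff] at h4
      exact absurd h4 hne
    · rw [← e2, h4])
  refine ⟨N'.comap π, fun x hx => ?_, hn.comap π, ?_, fun h => ?_⟩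
  · change π x ∈ N'
    rw [(h1 x).2 hx]
    exact N'.one_mem
  · have e : N.relIndex (N'.comap π) = π.ker.relIndex (N'.comap π) := by
      rw [QuotientGroup.ker_mk']
    rw [e, relIndex_ker, map_comap_eq_self_of_surjective hπ]
    exact hodd
  · change π _ ∈ N'
    simp only [map_mul, map_inv]
    exact hc (π h)

theorem k2a : K2aStmt.{u} := by
  intro G _ _ V ρ ψ O Q W gs wq w hw hwz ek t htQ htw
  have hCH : Cc V (ψ O) Q w ≤ H2 V (ψ O) Q w := fun x hx => hx.1.1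
  have hHz : H2 V (ψ O) Q w ≤ C1 (ψ O) := fun x hx => hx.1.1
  have hN : ((Cc V (ψ O) Q w).subgroupOf (H2 V (ψ O) Q w)).Normal :=
    (normal_subgroupOf_iff_le_normalizer hCH).2 ek.cn
  have hQ2 : IsPGroup 2 Q := IsPGroup.of_card gs.lg.cQ
  have hwQ : w ∈ Q := by
    rw [← gs.lc.qv] at hw
    exact hw.1
  have xs := gs.lc.xs
  have hX : ∀ q ∈ Q, q * w = w * q → q ∈ Cc V (ψ O) Q w := fun q hq h =>
    ek.ab (ek.xe ⟨hq, mem_centralizer_singleton_iff.2 h⟩)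
  have htw' : t * w = w * t * ψ O :=
    (xs.comm t htQ w hwQ).resolve_left fun h => htw (mem_centralizer_singleton_iff.2 h)
  obtain ⟨F, h1, h2, h3, h4⟩ := iso_abs ((Cc V (ψ O) Q w).subgroupOf (H2 V (ψ O) Q w))
    (Q.subgroupOf (H2 V (ψ O) Q w)) hQ2.comap_subtype ⟨t, ek.qh htQ⟩ htQ (fun h => htw h.1.2)
    (fun q hq => by
      rcases xs.comm q hq w hwQ with h | h
      · exact Or.inl (hX _ hq h)
      · refine Or.inr (hX _ (Q.mul_mem hq (Q.inv_mem htQ)) ?_)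
        change (q : G) * t⁻¹ * w = w * (q * t⁻¹)
        have a1 : t⁻¹ * w = w * t⁻¹ * ψ O := by
          have b1 : w * t = t * w * ψ O := by rw [htw', mul_assoc, xs.zz, mul_one]
          have b2 : t⁻¹ * ψ O = ψ O * t⁻¹ := xs.cen _ (Q.inv_mem htQ)
          calc t⁻¹ * w = t⁻¹ * (w * t) * t⁻¹ := by group
            _ = w * (ψ O * t⁻¹) := by rw [b1]; group
            _ = w * t⁻¹ * ψ O := by rw [← b2]; group
        have b2 : t⁻¹ * ψ O = ψ O * t⁻¹ := xs.cen _ (Q.inv_mem htQ)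
        calc (q : G) * t⁻¹ * w = q * w * (t⁻¹ * ψ O) := by rw [mul_assoc, a1]; group
          _ = w * q * (ψ O * ψ O) * t⁻¹ := by rw [h, b2]; group
          _ = w * (q * t⁻¹) := by rw [xs.zz]; group)
    (fun S hS c hc a ha => by
      have hR : (S : Subgroup (H2 V (ψ O) Q w)).map (H2 V (ψ O) Q w).subtype ≤ NN Q :=
        ek.qn _ (S.isPGroup'.map _) ((map_subtype_le _).trans hHz)
          (fun q hq => ⟨⟨q, ek.qh hq⟩, hS hq, rfl⟩)
      have e := wq c (hHz c.2) (by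
        rintro _ ⟨q, hq, rfl⟩
        exact hR ⟨_, hc ⟨q, ek.qh hq⟩ hq, rfl⟩)
      exact e.le ⟨a, ha, rfl⟩)
  refine ⟨F.map (H2 V (ψ O) Q w).subtype, fun x hx => ⟨⟨x, hCH hx⟩, h1 hx, rfl⟩, map_subtype_le _,
    fun h hh => mem_norm_of_le ?_, ?_, fun h hh => ⟨_, h4 ⟨h, hh⟩, rfl⟩⟩
  · rintro _ ⟨x, hx, rfl⟩
    exact ⟨_, h2.conj_mem x hx ⟨h, hh⟩, rfl⟩
  · rw [← relIndex_comap]
    exact h3

end Cfsg.Agent.H10.RfK2a
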